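/-
Finite abelian `p`-groups: number of generators in terms of the `p`-torsion subgroup.
-/
import Mathlib

set_option autoImplicit false

namespace Cfsg.Agent.Lib.FGS.AbelianRank

universe u

variable {V : Type u} [CommGroup V] [Finite V] {p : ℕ} [hp : Fact p.Prime]

/-- Nakayama for finite abelian `p`-groups. -/
theorem eq_top_of_sup_pow_range (hV : IsPGroup p V) (H : Subgroup V)
    (h : H ⊔ (powMonoidHom p : V →* V).range = ⊤) : H = ⊤ := by
  by_contra hne
  -- the quotient
  set Z := V ⧸ H
  have hnt : Nontrivial Z := QuotientGroup.nontrivial_iff.mpr hne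
  have hpg : IsPGroup p Z := hV.to_quotient H
  have hsurj : Function.Surjective (powMonoidHom p : Z →* Z) := by
    intro z
    obtain ⟨x, rfl⟩ := QuotientGroup.mk_surjective z
    have hx : x ∈ H ⊔ (powMonoidHom p : V →* V).range := by rw [h]; trivial
    obtain ⟨a, ha, b, ⟨y, rfl⟩, rfl⟩ := Subgroup.mem_sup.mp hx
    refine ⟨(y : Z), ?_⟩
    have h1 : ((a * (powMonoidHom p) y : V) : Z) = ((powMonoidHom p y : V) : Z) := by
      rw [QuotientGroup.mk_mul, (QuotientGroup.eq_one_iff a).mpr ha, one_mul]
    rw [h1]
    simp [QuotientGroup.mk_pow]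
  have hinj : Function.Injective (powMonoidHom p : Z →* Z) := Finite.injective_iff_surjective.mpr hsurj
  obtain ⟨z, hz⟩ : ∃ z : Z, z ≠ 1 := exists_ne 1
  obtain ⟨k, hk⟩ := hpg z
  -- minimal power argument
  have key : ∀ k : ℕ, z ^ p ^ k = 1 → z = 1 := by
    intro k
    induction k with
    | zero => simp
    | succ k ih =>
      intro h2
      apply ih
      apply hinj
      simp only [powMonoidHom_apply, one_pow]
      rw [← pow_mul, ← pow_succ]
      exact h2
  exact hz (key k hk)

/-- A finite `ZMod p`-module has `n` generators, where `|Q| = p ^ n`. -/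
theorem exists_generators_of_module {Q : Type u} [AddCommGroup Q] [Module (ZMod p) Q] [Finite Q] :
    ∃ (n : ℕ) (b : Fin n → Q), p ^ n = Nat.card Q ∧ AddSubgroup.closure (Set.range b) = ⊤ := by
  classical
  haveI : Module.Finite (ZMod p) Q := Module.Finite.of_finite
  let b := Module.finBasis (ZMod p) Q
  refine ⟨Module.finrank (ZMod p) Q, b, ?_, ?_⟩
  · rw [Module.natCard_eq_pow_finrank (K := ZMod p) (V := Q), Nat.card_zmod]
  · have h1 : AddSubgroup.toZModSubmodule p (AddSubgroup.closure (Set.range b)) = ⊤ := by
      rw [eq_top_iff, ← b.span_eq, Submodule.span_le]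
      intro x hx
      exact AddSubgroup.subset_closure hx
    have := congrArg Submodule.toAddSubgroup h1
    rw [AddSubgroup.toZModSubmodule_toAddSubgroup] at this
    rw [this]
    simp

/-- A finite abelian group of exponent `p` has `n` generators, where `|Q| = p ^ n`. -/
theorem exists_generators_of_nsmul {Q : Type u} [AddCommGroup Q] [Finite Q] (hQp : ∀ x : Q, p • x = 0) :
    ∃ (n : ℕ) (b : Fin n → Q), p ^ n = Nat.card Q ∧ AddSubgroup.closure (Set.range b) = ⊤ := by
  letI : Module (ZMod p) Q := AddCommGroup.zmodModule hQp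
  exact exists_generators_of_module

/-- A finite abelian `p`-group whose `p`-torsion has order at most `p ^ d` can be generated by
`d` elements. -/
theorem exists_finset_closure_eq_top (hV : IsPGroup p V) (d : ℕ)
    (hd : Nat.card (powMonoidHom p : V →* V).ker ≤ p ^ d) :
    ∃ S : Finset V, S.card ≤ d ∧ Subgroup.closure (S : Set V) = ⊤ := by
  classical
  set φ : V →* V := powMonoidHom p with hφ
  set R := φ.range with hR
  have hcardQ : Nat.card (V ⧸ R) = Nat.card φ.ker := by
    have h1 := Subgroup.card_mul_index φ.ker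
    have h2 := Subgroup.card_mul_index R
    have h3 : Nat.card R = φ.ker.index := by
      rw [Subgroup.index_ker]
    have hRpos : 0 < Nat.card R := Nat.card_pos
    have h4 : Nat.card R * Nat.card (V ⧸ R) = Nat.card R * Nat.card φ.ker := by
      rw [Subgroup.index_eq_card] at h2
      rw [h2]
      rw [← h1, h3, mul_comm]
    exact Nat.eq_of_mul_eq_mul_left hRpos h4
  have hQp : ∀ x : Additive (V ⧸ R), p • x = 0 := by
    intro x
    obtain ⟨v, hv⟩ := QuotientGroup.mk_surjective (Additive.toMul x)
    have h1 : (Additive.toMul x) ^ p = 1 := by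
      rw [← hv, ← QuotientGroup.mk_pow, QuotientGroup.eq_one_iff]
      exact ⟨v, rfl⟩
    exact h1
  obtain ⟨f, b, hcard, hspan⟩ := exists_generators_of_nsmul hQp
  have hfd : f ≤ d := by
    have h1 : p ^ f ≤ p ^ d := by
      rw [hcard]
      calc Nat.card (Additive (V ⧸ R)) = Nat.card (V ⧸ R) := rfl
        _ = Nat.card φ.ker := hcardQ
        _ ≤ p ^ d := hd
    exact (Nat.pow_le_pow_iff_right hp.out.one_lt).mp h1
  choose a ha using fun i : Fin f => QuotientGroup.mk_surjective (Additive.toMul (b i))
  refine ⟨Finset.univ.image a, ?_, ?_⟩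
  · calc (Finset.univ.image a).card ≤ (Finset.univ : Finset (Fin f)).card := Finset.card_image_le
      _ = f := by simp
      _ ≤ d := hfd
  · apply eq_top_of_sup_pow_range hV
    set H := Subgroup.closure ((Finset.univ.image a : Finset V) : Set V) with hH
    -- the image of H in Q contains the generators
    let I : AddSubgroup (Additive (V ⧸ R)) := Subgroup.toAddSubgroup (H.map (QuotientGroup.mk' R))
    have hI' : I = ⊤ := by
      rw [eq_top_iff, ← hspan, AddSubgroup.closure_le]
      rintro _ ⟨i, rfl⟩
      refine ⟨a i, Subgroup.subset_closure ?_, ha i⟩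
      simp
    rw [eq_top_iff]
    intro x _
    have hx : Additive.ofMul (x : V ⧸ R) ∈ I := by rw [hI']; trivial
    obtain ⟨h, hh, e⟩ := hx
    have : h⁻¹ * x ∈ R := by
      rw [← QuotientGroup.eq]
      exact e
    have h3 : x = h * (h⁻¹ * x) := by group
    rw [h3]
    exact Subgroup.mul_mem_sup hh this

end Cfsg.Agent.Lib.FGS.AbelianRank
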