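/-
The Baer correspondence for groups of class at most two and odd exponent: an abelian group
structure on the underlying set preserved by all automorphisms. Fixed points on the kernel of the
trace map.
-/
import Cfsg.Agent.Lib.PGroups.ClassTwo
import Mathlib

set_option autoImplicit false

namespace Cfsg.Agent.Lib.FGS.Baer

open Cfsg.Agent.Lib.PGroups.ClassTwo Subgroup
open scoped commutatorElement

section Baer

variable {E : Type*} [Group E]

/-- `h = (p+1)/2`. -/
def half (p : ℕ) : ℕ := (p + 1) / 2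

theorem two_mul_half {p : ℕ} (hp : Odd p) : 2 * half p = p + 1 := by
  obtain ⟨k, rfl⟩ := hp
  unfold half
  omega

/-- The Baer sum. -/
def bAdd (p : ℕ) (x y : E) : E := x * y * ⁅y, x⁆ ^ half p

variable {p : ℕ}

private theorem central_pow (hc : ∀ a b : E, ⁅a, b⁆ ∈ center E) (a b : E) (n : ℕ) :
    ⁅a, b⁆ ^ n ∈ center E := (center E).pow_mem (hc a b) n

private theorem comm_central {u : E} (hu : u ∈ center E) (g : E) : g * u = u * g :=
  (mem_center_iff.1 hu) g

private theorem comm_central_right (x : E) {u : E} (hu : u ∈ center E) : ⁅x, u⁆ = 1 :=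
  commutatorElement_eq_one_iff_mul_comm.2 (comm_central hu x)

private theorem comm_central_left {u : E} (hu : u ∈ center E) (x : E) : ⁅u, x⁆ = 1 :=
  commutatorElement_eq_one_iff_mul_comm.2 (comm_central hu x).symm

theorem bAdd_assoc (hc : ∀ a b : E, ⁅a, b⁆ ∈ center E) (x y z : E) :
    bAdd p (bAdd p x y) z = bAdd p x (bAdd p y z) := by
  unfold bAdd
  set h := half p
  have ha := central_pow hc y x h
  have hb := central_pow hc z x h
  have hc' := central_pow hc z y h
  have e1 : ⁅z, x * y * ⁅y, x⁆ ^ h⁆ = ⁅z, x⁆ * ⁅z, y⁆ := by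
    rw [comm_mul_right hc, comm_mul_right hc, comm_central_right z ha, mul_one]
  have e2 : ⁅y * z * ⁅z, y⁆ ^ h, x⁆ = ⁅y, x⁆ * ⁅z, x⁆ := by
    rw [comm_mul_left hc, comm_mul_left hc, comm_central_left hc' x, mul_one]
  have e3 : (⁅z, x⁆ * ⁅z, y⁆) ^ h = ⁅z, x⁆ ^ h * ⁅z, y⁆ ^ h :=
    Commute.mul_pow (comm_central (hc z y) _) h
  have e4 : (⁅y, x⁆ * ⁅z, x⁆) ^ h = ⁅y, x⁆ ^ h * ⁅z, x⁆ ^ h :=
    Commute.mul_pow (comm_central (hc z x) _) h
  rw [e1, e2, e3, e4]
  generalize ⁅y, x⁆ ^ h = A at *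
  generalize ⁅z, x⁆ ^ h = B at *
  generalize ⁅z, y⁆ ^ h = C at *
  calc x * y * A * z * (B * C) = x * y * (A * z) * (B * C) := by simp only [mul_assoc]
    _ = x * y * (z * A) * (B * C) := by rw [comm_central ha z]
    _ = x * y * z * (A * B * C) := by simp only [mul_assoc]
    _ = x * y * z * (C * (A * B)) := by rw [comm_central hc' (A * B)]
    _ = x * (y * z * C) * (A * B) := by simp only [mul_assoc]

theorem bAdd_comm (hc : ∀ a b : E, ⁅a, b⁆ ∈ center E) (hp : Odd p) (hexp : ∀ x : E, x ^ p = 1)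
    (x y : E) : bAdd p x y = bAdd p y x := by
  unfold bAdd
  set h := half p
  set u := ⁅y, x⁆ with hu
  have huc : u ∈ center E := hc y x
  have e1 : y * x = u * x * y := by rw [hu]; simp only [commutatorElement_def]; group
  have e2 : ⁅x, y⁆ = u⁻¹ := by rw [hu, commutatorElement_inv]
  have e3 : u ^ h * u ^ h = u := by
    rw [← pow_add, ← two_mul, two_mul_half hp, pow_succ, hexp, one_mul]
  rw [e2, e1, inv_pow]
  have hup : u ^ h ∈ center E := (center E).pow_mem huc h
  have e4 : u ^ h = u * (u ^ h)⁻¹ := by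
    rw [eq_mul_inv_iff_mul_eq, e3]
  calc x * y * u ^ h = x * y * (u * (u ^ h)⁻¹) := by rw [← e4]
    _ = (x * y * u) * (u ^ h)⁻¹ := by simp only [mul_assoc]
    _ = (u * (x * y)) * (u ^ h)⁻¹ := by rw [comm_central huc (x * y)]
    _ = u * x * y * (u ^ h)⁻¹ := by simp only [mul_assoc]

/-- The Baer abelian group structure. -/
@[reducible] def addCommGroup (p : ℕ) (hc : ∀ a b : E, ⁅a, b⁆ ∈ center E) (hp : Odd p)
    (hexp : ∀ x : E, x ^ p = 1) : AddCommGroup E :=
  letI : Add E := ⟨bAdd p⟩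
  letI : Zero E := ⟨1⟩
  letI : Neg E := ⟨fun x => x⁻¹⟩
  { AddGroup.ofLeftAxioms (bAdd_assoc hc)
      (fun x => by
        show bAdd p 1 x = x
        simp [bAdd])
      (fun x => by
        show bAdd p x⁻¹ x = 1
        have : ⁅x, x⁻¹⁆ = 1 := commutatorElement_eq_one_iff_mul_comm.2 (by simp)
        simp [bAdd, this]) with
    add_comm := bAdd_comm hc hp hexp }

theorem add_def (hc : ∀ a b : E, ⁅a, b⁆ ∈ center E) (hp : Odd p) (hexp : ∀ x : E, x ^ p = 1)
    (x y : E) :
    letI := addCommGroup p hc hp hexp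
    x + y = bAdd p x y := rfl

theorem nsmul_eq_pow (hc : ∀ a b : E, ⁅a, b⁆ ∈ center E) (hp : Odd p) (hexp : ∀ x : E, x ^ p = 1)
    (n : ℕ) (x : E) :
    letI := addCommGroup p hc hp hexp
    n • x = x ^ n := by
  letI := addCommGroup p hc hp hexp
  induction n with
  | zero => rw [zero_smul, pow_zero]; rfl
  | succ n ih =>
    rw [succ_nsmul, ih, add_def hc hp hexp, bAdd, pow_succ]
    have : ⁅x, x ^ n⁆ = 1 :=
      commutatorElement_eq_one_iff_mul_comm.2 (Commute.pow_right (Commute.refl x) n).eq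
    rw [this, one_pow, mul_one]

/-- Automorphisms are additive for the Baer sum. -/
def endOf (p : ℕ) (hc : ∀ a b : E, ⁅a, b⁆ ∈ center E) (hp : Odd p) (hexp : ∀ x : E, x ^ p = 1) :
    letI := addCommGroup p hc hp hexp
    MulAut E →* AddMonoid.End E :=
  letI := addCommGroup p hc hp hexp
  { toFun := fun φ =>
      { toFun := φ
        map_zero' := map_one φ
        map_add' := fun x y => by
          show φ (bAdd p x y) = bAdd p (φ x) (φ y)
          simp [bAdd, map_mul, map_pow, map_commutatorElement] }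
    map_one' := rfl
    map_mul' := fun _ _ => rfl }

theorem endOf_apply (hc : ∀ a b : E, ⁅a, b⁆ ∈ center E) (hp : Odd p) (hexp : ∀ x : E, x ^ p = 1)
    (φ : MulAut E) (x : E) : endOf p hc hp hexp φ x = φ x := rfl

end Baer

section Trace

variable {V P Q : Type*} [AddCommGroup V] [Finite V] [Group P] [Group Q] [Fintype Q]

/-- A `p`-group acting on an elementary abelian `p`-group and normalizing the (coprime) group `Q`,
with `C_V(P) ≤ C_V(Q)`: then `Q` acts trivially. -/
theorem trivial_of_fixed_le {p : ℕ} [hp : Fact p.Prime] (hV : ∀ v : V, p • v = 0)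
    (hP : IsPGroup p P) (ρP : P →* AddMonoid.End V) (ρQ : Q →* AddMonoid.End V)
    (hQ : (Fintype.card Q).Coprime p)
    (hconj : ∀ s : P, ∃ e : Q ≃ Q, ∀ q : Q, ρP s * ρQ q = ρQ (e q) * ρP s)
    (hfix : ∀ v : V, (∀ s : P, ρP s v = v) → ∀ q : Q, ρQ q v = v) :
    ∀ (q : Q) (v : V), ρQ q v = v := by
  classical
  by_contra hcon
  push Not at hcon
  obtain ⟨q₀, v₀, hv₀⟩ := hcon
  -- the trace
  let T : AddMonoid.End V := ∑ q : Q, ρQ q
  have hT : ∀ v, T v = ∑ q : Q, ρQ q v := by
    intro v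
    exact AddMonoidHom.finsetSum_apply _ _ _
  have hTfix : ∀ (q v), ρQ q (T v) = T v := by
    intro q v
    rw [hT, map_sum]
    refine Fintype.sum_equiv (Equiv.mulLeft q) _ _ ?_
    intro x
    show _ = ρQ (q * x) v
    rw [map_mul]
    rfl
  -- `T` is not injective
  have hTinj : ¬ Function.Injective T := by
    intro hinj
    have hsurj : Function.Surjective T := Finite.surjective_of_injective hinj
    obtain ⟨u, hu⟩ := hsurj v₀
    exact hv₀ (by rw [← hu]; exact hTfix q₀ u)
  let W : AddSubgroup V := T.ker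
  have hWne : W ≠ ⊥ := by
    intro h
    apply hTinj
    exact (AddMonoidHom.ker_eq_bot_iff T).1 h
  have hWinv : ∀ (s : P) (v : V), T v = 0 → T (ρP s v) = 0 := by
    intro s v hv
    obtain ⟨e, he⟩ := hconj s
    have h1 : ρP s (T v) = T (ρP s v) := by
      rw [hT, map_sum, hT]
      refine Fintype.sum_equiv e _ _ ?_
      intro q
      have := congrArg (fun f : AddMonoid.End V => f v) (he q)
      exact this
    rw [← h1, hv, map_zero]
  -- action of `P` on `W`
  letI : MulAction P W :=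
    { smul := fun s w => ⟨ρP s w, hWinv s w w.2⟩
      one_smul := fun w => Subtype.ext (by
        show ρP 1 w = w
        rw [map_one]; rfl)
      mul_smul := fun s t w => Subtype.ext (by
        show ρP (s * t) w = ρP s (ρP t w)
        rw [map_mul]; rfl) }
  have hmod := hP.card_modEq_card_fixedPoints W
  have hdvd : p ∣ Nat.card W := by
    obtain ⟨w, hw, hw0⟩ := (AddSubgroup.bot_or_exists_ne_zero W).resolve_left hWne
    have h1 : addOrderOf w = p := addOrderOf_eq_prime (hV w) hw0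
    have h2 : addOrderOf (⟨w, hw⟩ : W) ∣ Nat.card W := addOrderOf_dvd_natCard _
    rwa [AddSubgroup.addOrderOf_mk, h1] at h2
  have hdvd2 : p ∣ Nat.card (MulAction.fixedPoints P W) := by
    have := (Nat.modEq_zero_iff_dvd.2 hdvd).symm.trans hmod
    exact Nat.modEq_zero_iff_dvd.1 this.symm
  let z : MulAction.fixedPoints P W := ⟨0, fun s => Subtype.ext (map_zero (ρP s))⟩
  haveI : Nonempty (MulAction.fixedPoints P W) := ⟨z⟩
  have hgt : 1 < Nat.card (MulAction.fixedPoints P W) :=
    lt_of_lt_of_le hp.out.one_lt (Nat.le_of_dvd Nat.card_pos hdvd2)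
  haveI : Nontrivial (MulAction.fixedPoints P W) := Finite.one_lt_card_iff_nontrivial.1 hgt
  obtain ⟨y, hy⟩ := exists_ne z
  have hw0 : ((y : W) : V) ≠ 0 := by
    intro h
    apply hy
    exact Subtype.ext (Subtype.ext h)
  have hyfix : ∀ s : P, ρP s (y : W) = (y : W) := by
    intro s
    have := y.2 s
    exact congrArg Subtype.val this
  have hyQ := hfix _ hyfix
  have hTy : T ((y : W) : V) = 0 := (y : W).2
  rw [hT] at hTy
  have hsum : ∑ q : Q, ρQ q ((y : W) : V) = Fintype.card Q • ((y : W) : V) := by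
    rw [Finset.sum_congr rfl (fun q _ => hyQ q)]
    simp
  rw [hsum] at hTy
  have h1 : addOrderOf ((y : W) : V) ∣ Fintype.card Q := addOrderOf_dvd_of_nsmul_eq_zero hTy
  have h2 : addOrderOf ((y : W) : V) ∣ p := addOrderOf_dvd_of_nsmul_eq_zero (hV _)
  have h3 : addOrderOf ((y : W) : V) = 1 := Nat.dvd_one.1 (hQ ▸ Nat.dvd_gcd h1 h2)
  exact hw0 (AddMonoid.addOrderOf_eq_one_iff.1 h3)

end Trace

end Cfsg.Agent.Lib.FGS.Baer
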