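/-
Stability chains `[W, X, ..., X]` and nilpotency: if `X ⊴ G` acts nilpotently on `F ⊴ G`, and
`C_X(F) ≤ F`, then `X` is nilpotent.
-/
import Cfsg.Agent.Lib.FGS.Comm
import Mathlib.GroupTheory.Nilpotent

set_option autoImplicit false

namespace Cfsg.Agent.Lib.FGS.Stability

open Cfsg.Agent.Lib.FGS.Comm
open scoped commutatorElement

variable {G : Type*} [Group G]

/-- The chain `[W, X, ..., X]`. -/
def chain (X W : Subgroup G) : ℕ → Subgroup G
  | 0 => W
  | k + 1 => ⁅chain X W k, X⁆

@[simp] theorem chain_zero (X W : Subgroup G) : chain X W 0 = W := rfl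

theorem chain_succ (X W : Subgroup G) (k : ℕ) : chain X W (k + 1) = ⁅chain X W k, X⁆ := rfl

instance chain_normal (X W : Subgroup G) [X.Normal] [W.Normal] (k : ℕ) : (chain X W k).Normal := by
  induction k with
  | zero => exact ‹W.Normal›
  | succ k ih =>
    rw [chain_succ]
    infer_instance

theorem chain_mono (X : Subgroup G) {W W' : Subgroup G} (h : W ≤ W') (k : ℕ) :
    chain X W k ≤ chain X W' k := by
  induction k with
  | zero => exact h
  | succ k ih => exact Subgroup.commutator_mono ih le_rfl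

theorem chain_succ' (X W : Subgroup G) (k : ℕ) : chain X W (k + 1) = chain X ⁅W, X⁆ k := by
  induction k with
  | zero => rfl
  | succ k ih =>
    show ⁅chain X W (k + 1), X⁆ = ⁅chain X ⁅W, X⁆ k, X⁆
    rw [ih]

theorem chain_eq_bot_of_le {X W : Subgroup G} {m n : ℕ} (hmn : m ≤ n) (h : chain X W m = ⊥) :
    chain X W n = ⊥ := by
  induction n, hmn using Nat.le_induction with
  | base => exact h
  | succ n _ ih =>
    rw [chain_succ, ih, Subgroup.commutator_bot_left]

/-- `[W, γ_k(X)] ≤ [W, X, ..., X]` (`k+1` copies). -/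
theorem commutator_lcs_le (X : Subgroup G) [X.Normal] (k : ℕ) :
    ∀ (W : Subgroup G) [W.Normal], ⁅W, X.lowerCentralSeries k⁆ ≤ chain X W (k + 1) := by
  induction k with
  | zero =>
    intro W _
    exact le_rfl
  | succ k ih =>
    intro W hW
    rw [Subgroup.commutator_comm, Subgroup.lowerCentralSeries_succ]
    apply three_le (R := chain X W (k + 1 + 1))
    · rw [Subgroup.commutator_comm X W, chain_succ']
      exact ih ⁅W, X⁆
    · exact Subgroup.commutator_mono (ih W) le_rfl

theorem lcs_le_chain (F X : Subgroup G) (m : ℕ) (hF : X.lowerCentralSeries m ≤ F) (j : ℕ) :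
    X.lowerCentralSeries (m + j) ≤ chain X F j := by
  induction j with
  | zero => exact hF
  | succ j ih =>
    show ⁅X.lowerCentralSeries (m + j), X⁆ ≤ ⁅chain X F j, X⁆
    exact Subgroup.commutator_mono ih le_rfl

/-- If `X` acts nilpotently on `F` (both normal in `G`), then some term of the lower central series
of `X` centralizes `F`. -/
theorem lcs_le_centralizer (F X : Subgroup G) [F.Normal] [X.Normal] (m : ℕ)
    (h : chain X F m = ⊥) :
    X.lowerCentralSeries m ≤ Subgroup.centralizer (F : Set G) := by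
  have h1 : chain X F (m + 1) = ⊥ := chain_eq_bot_of_le (Nat.le_succ m) h
  have h2 : ⁅F, X.lowerCentralSeries m⁆ = ⊥ := by
    rw [eq_bot_iff, ← h1]
    exact commutator_lcs_le X m F
  have h3 : ⁅X.lowerCentralSeries m, F⁆ = ⊥ := by
    rw [Subgroup.commutator_comm]; exact h2
  exact Subgroup.commutator_eq_bot_iff_le_centralizer.1 h3

/-- If `X` acts nilpotently on `F` (both normal in `G`), and `C_X(F) ≤ F`, then `X` is nilpotent. -/
theorem isNilpotent_of_chain (F X : Subgroup G) [F.Normal] [X.Normal] (m : ℕ)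
    (h : chain X F m = ⊥) (hC : X ⊓ Subgroup.centralizer (F : Set G) ≤ F) :
    Group.IsNilpotent X := by
  have h1 : X.lowerCentralSeries m ≤ F := fun x hx =>
    hC ⟨Subgroup.lowerCentralSeries_le_self _ _ hx, lcs_le_centralizer F X m h hx⟩
  refine Subgroup.isNilpotent_of_lowerCentralSeries_eq_bot (n := m + m) ?_
  rw [eq_bot_iff, ← h]
  exact lcs_le_chain F X m h1 m

/-- `[X ⊔ Y, C] ≤ [X, C] ⊔ [Y, C]` for normal subgroups. -/
theorem commutator_sup_le (X Y C : Subgroup G) [X.Normal] [Y.Normal] [C.Normal] :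
    ⁅X ⊔ Y, C⁆ ≤ ⁅X, C⁆ ⊔ ⁅Y, C⁆ := by
  rw [Subgroup.commutator_le]
  intro u hu c hc
  rw [← SetLike.mem_coe, Subgroup.mul_normal] at hu
  obtain ⟨x, hx, y, hy, rfl⟩ := hu
  have e : ⁅x * y, c⁆ = (x * ⁅y, c⁆ * x⁻¹) * ⁅x, c⁆ := by
    simp only [commutatorElement_def]; group
  rw [e, sup_comm]
  refine Subgroup.mul_mem_sup ?_ (Subgroup.commutator_mem_commutator hx hc)
  exact (Subgroup.commutator_normal Y C).conj_mem _ (Subgroup.commutator_mem_commutator hy hc) x

theorem chain_sup_le (C X Y : Subgroup G) [X.Normal] [Y.Normal] [C.Normal] (k : ℕ) :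
    chain C (X ⊔ Y) k ≤ chain C X k ⊔ chain C Y k := by
  induction k with
  | zero => exact le_rfl
  | succ k ih =>
    rw [chain_succ, chain_succ, chain_succ]
    exact (Subgroup.commutator_mono ih le_rfl).trans (commutator_sup_le _ _ _)

/-- Nilpotent action on finitely many normal subgroups gives nilpotent action on their join. -/
theorem exists_chain_sSup_eq_bot [Finite G] (C : Subgroup G) [C.Normal] (T : Set (Subgroup G))
    (hT : ∀ W ∈ T, W.Normal ∧ ∃ m, chain C W m = ⊥) :
    (sSup T).Normal ∧ ∃ m, chain C (sSup T) m = ⊥ := by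
  refine Set.Finite.induction_on_subset T (Set.toFinite T)
    (motive := fun t _ => (sSup t).Normal ∧ ∃ m, chain C (sSup t) m = ⊥) ?_ ?_
  · rw [sSup_empty]
    refine ⟨inferInstance, 0, rfl⟩
  · intro a t ha _ _ ih
    obtain ⟨hn, m, hm⟩ := ih
    obtain ⟨han, m', hm'⟩ := hT a ha
    rw [sSup_insert]
    haveI := hn
    haveI := han
    refine ⟨inferInstance, m + m', ?_⟩
    rw [eq_bot_iff]
    refine (chain_sup_le C a (sSup t) (m + m')).trans ?_
    rw [chain_eq_bot_of_le (Nat.le_add_left m' m) hm', chain_eq_bot_of_le (Nat.le_add_right m m') hm,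
      sup_bot_eq]

end Cfsg.Agent.Lib.FGS.Stability
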