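/-
Coprime automorphisms of `p`-groups (`p` odd) trivial on elements of order `p`; chains for groups
acting through a `q`-group.
-/
import Cfsg.Agent.S3736
import Cfsg.Agent.Lib.FGS.Stability
import Cfsg.Agent.Lib.Coprime.Ext

set_option autoImplicit false

namespace Cfsg.Agent.Lib.FGS.OmegaFix

open Cfsg.Agent.Lib.FGS.Stability Cfsg.Agent.Lib.Coprime.Ext
open scoped commutatorElement

variable {G : Type*} [Group G] [Finite G]

/-- A `q'`-automorphism of a `q`-group (`q` odd) trivial on the elements of order `q` is trivial. -/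
theorem mem_centralizer_of_fixes {q : ℕ} [hq1 : Fact q.Prime] (hq : q ≠ 2) (Q : Subgroup G)
    (hQ : IsPGroup q Q) (y : G) (hy : y ∈ Subgroup.normalizer (Q : Set G))
    (hcop : (orderOf y).Coprime q) (hfix : ∀ x ∈ Q, orderOf x = q → y * x = x * y) :
    y ∈ Subgroup.centralizer (Q : Set G) := by
  classical
  set A : Subgroup G := Subgroup.zpowers y with hA
  have hAQ : A ≤ Subgroup.normalizer (Q : Set G) := by
    rw [hA, Subgroup.zpowers_le]; exact hy
  by_contra hne
  have hy' : y ∈ A := Subgroup.mem_zpowers y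
  have hnt : ⁅Q, A⁆ ≠ ⊥ := by
    intro h
    have h1 : ⁅A, Q⁆ = ⊥ := by rw [Subgroup.commutator_comm]; exact h
    exact hne (Subgroup.commutator_eq_bot_iff_le_centralizer.1 h1 hy')
  let S : Set (Subgroup G) := {U | U ≤ Q ∧ A ≤ Subgroup.normalizer (U : Set G) ∧ ⁅U, A⁆ ≠ ⊥}
  have hSne : S.Nonempty := ⟨Q, le_rfl, hAQ, hnt⟩
  obtain ⟨P, hP⟩ := (Set.toFinite S).exists_minimal hSne
  obtain ⟨hPQ, hPA, hPnt⟩ := hP.prop
  have hPp : IsPGroup q P := hQ.to_le hPQ
  have hcard : Nat.card A = orderOf y := Nat.card_zpowers y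
  have := Cfsg.Agent.S3736.result A A P hPp hPA le_rfl Subgroup.le_normalizer
    (by rw [hcard]; exact hcop) hPnt (fun U hU hUA => by
      by_contra hc
      have hUS : U ∈ S := ⟨hU.le.trans hPQ, hUA, hc⟩
      exact absurd (hP.eq_of_le hUS hU.le) hU.ne)
  have hexp := this.2.2.2 hq
  apply hPnt
  have h1 : ⁅A, P⁆ = ⊥ := by
    rw [Subgroup.commutator_eq_bot_iff_le_centralizer, hA, Subgroup.zpowers_le]
    rw [Subgroup.mem_centralizer_iff]
    intro x hx
    by_cases hx1 : x = 1
    · simp [hx1]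
    · have h2 : orderOf x = q := orderOf_eq_prime (hexp x hx) hx1
      exact (hfix x (hPQ hx) h2).symm
  rw [Subgroup.commutator_comm]; exact h1

/-- A group all of whose `q'`-elements centralize a nontrivial normal `q`-group `W` cannot satisfy
`[W, C] = W`. -/
theorem commutator_ne_self_of_pgroup {q : ℕ} [hq1 : Fact q.Prime] (C W : Subgroup G) [C.Normal]
    [W.Normal] (hW : IsPGroup q W)
    (hfix : ∀ y ∈ C, (orderOf y).Coprime q → y ∈ Subgroup.centralizer (W : Set G))
    (hne : W ≠ ⊥) : ⁅W, C⁆ ≠ W := by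
  classical
  intro h
  have hq : q.Prime := hq1.out
  let C₁ : Subgroup C := (Subgroup.centralizer (W : Set G)).subgroupOf C
  haveI hC₁ : C₁.Normal := Subgroup.Normal.subgroupOf inferInstance C
  have hpg : IsPGroup q (C ⧸ C₁) := by
    intro cbar
    obtain ⟨c, rfl⟩ := QuotientGroup.mk_surjective cbar
    obtain ⟨a, m, hm, hord⟩ := Nat.exists_eq_pow_mul_and_not_dvd
      (orderOf_pos (c : G)).ne' q hq.ne_one
    refine ⟨a, ?_⟩
    rw [← QuotientGroup.mk_pow, QuotientGroup.eq_one_iff]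
    show ((c ^ q ^ a : C) : G) ∈ Subgroup.centralizer (W : Set G)
    rw [Subgroup.coe_pow]
    apply hfix _ (C.pow_mem c.2 _)
    have h2 : orderOf ((c : G) ^ q ^ a) = m := by
      have h3 : m ∣ orderOf (c : G) := by rw [hord]; exact dvd_mul_left _ _
      have h4 := orderOf_pow_orderOf_div (orderOf_pos (c : G)).ne' h3
      have h5 : orderOf (c : G) / m = q ^ a := by
        rw [hord]
        have hm0 : 0 < m := Nat.pos_of_ne_zero (by rintro rfl; simp at hm)
        exact Nat.mul_div_cancel _ hm0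
      rwa [h5] at h4
    rw [h2]
    exact ((Nat.Prime.coprime_iff_not_dvd hq).2 hm).symm
  obtain ⟨S⟩ : Nonempty (Sylow q C) := inferInstance
  have hsup : (S : Subgroup C) ⊔ C₁ = ⊤ := by
    set T := (S : Subgroup C) ⊔ C₁ with hT
    have h1 : T.index ∣ (S : Subgroup C).index := Subgroup.index_dvd_of_le le_sup_left
    have h2 : T.index ∣ C₁.index := Subgroup.index_dvd_of_le le_sup_right
    obtain ⟨b, hb⟩ := IsPGroup.iff_card.1 hpg
    have h3 : C₁.index = q ^ b := by rw [Subgroup.index_eq_card]; exact hb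
    rw [h3] at h2
    obtain ⟨c, -, hc⟩ := (Nat.dvd_prime_pow hq).1 h2
    rcases Nat.eq_zero_or_pos c with rfl | hc0
    · rw [pow_zero] at hc
      exact Subgroup.index_eq_one.1 hc
    · exfalso
      apply Sylow.not_dvd_index S
      refine dvd_trans ?_ h1
      rw [hc]
      exact dvd_pow_self q hc0.ne'
  let Sg : Subgroup G := (S : Subgroup C).map C.subtype
  have hSg : IsPGroup q Sg := S.isPGroup'.map C.subtype
  have hSW : Sg ≤ Subgroup.normalizer (W : Set G) := by
    rw [Subgroup.normalizer_eq_top]; exact le_top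
  have hle : ⁅W, C⁆ ≤ ⁅W, Sg⁆ := by
    rw [Subgroup.commutator_le]
    intro w hw c hc
    have hc' : (⟨c, hc⟩ : C) ∈ (S : Subgroup C) ⊔ C₁ := by rw [hsup]; trivial
    rw [← SetLike.mem_coe, Subgroup.mul_normal] at hc'
    obtain ⟨s, hs, d, hd, hsd⟩ := hc'
    have hc2 : c = (s : G) * (d : G) := by
      have := congrArg Subtype.val hsd
      exact this.symm
    have hdc : (d : G) ∈ Subgroup.centralizer (W : Set G) := hd
    have hwd : ⁅w, (d : G)⁆ = 1 :=
      commutatorElement_eq_one_iff_mul_comm.2 ((Subgroup.mem_centralizer_iff.1 hdc) w hw)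
    have e : ⁅w, c⁆ = ⁅w, (s : G)⁆ * ((s : G) * ⁅w, (d : G)⁆ * (s : G)⁻¹) := by
      rw [hc2]
      simp only [commutatorElement_def]; group
    rw [e, hwd]
    simp only [mul_one, mul_inv_cancel]
    exact Subgroup.commutator_mem_commutator hw ⟨s, hs, rfl⟩
  have hle2 : ⁅W, Sg⁆ ≤ W := Subgroup.commutator_le_left W Sg
  have hEq : ⁅W, Sg⁆ = W := le_antisymm hle2 (by
    conv_lhs => rw [← h]
    exact hle)
  exact hne (eq_bot_of_commutator_eq_self hSg hW hSW hEq)

/-- If all `q'`-elements of the normal subgroup `C` centralize the normal `q`-subgroup `Q`, then `C`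
acts nilpotently on `Q`. -/
theorem exists_chain_eq_bot_of_pgroup {q : ℕ} [hq1 : Fact q.Prime] (C Q : Subgroup G) [C.Normal]
    (hQ : IsPGroup q Q)
    (hfix : ∀ y ∈ C, (orderOf y).Coprime q → y ∈ Subgroup.centralizer (Q : Set G)) :
    ∀ (n : ℕ) (W : Subgroup G), Nat.card W = n → W.Normal → W ≤ Q → ∃ m, chain C W m = ⊥ := by
  intro n
  induction n using Nat.strong_induction_on with
  | _ n ih =>
    intro W hn hWn hWQ
    by_cases hW : W = ⊥
    · exact ⟨0, hW⟩
    haveI := hWn
    have hfixW : ∀ y ∈ C, (orderOf y).Coprime q → y ∈ Subgroup.centralizer (W : Set G) :=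
      fun y hy hc => Subgroup.centralizer_le hWQ (hfix y hy hc)
    have hne := commutator_ne_self_of_pgroup C W (hQ.to_le hWQ) hfixW hW
    have hle : ⁅W, C⁆ ≤ W := Subgroup.commutator_le_left W C
    have hlt : ⁅W, C⁆ < W := lt_of_le_of_ne hle hne
    have hcard : Nat.card (⁅W, C⁆ : Subgroup G) < n := by
      rw [← hn]
      refine lt_of_le_of_ne (Subgroup.card_le_of_le hle) (fun h => ?_)
      exact hne (Subgroup.eq_of_le_of_card_ge hle h.ge)
    obtain ⟨m, hm⟩ := ih _ hcard ⁅W, C⁆ rfl inferInstance (hle.trans hWQ)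
    exact ⟨m + 1, by rw [chain_succ', hm]⟩

end Cfsg.Agent.Lib.FGS.OmegaFix
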